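/-
p-stability of a group (the form with an acting p-subgroup): behaviour under the quotient by the
p'-core and the action form on normal p-subgroups.
-/
import Mathlib
import Cfsg.Prelude.Def_PLocal
import Cfsg.Agent.Lib.SectRank.Constrained
import Cfsg.Agent.Lib.Replacement.ZJFunctor
import Cfsg.Agent.Lib.PSolvable.HallHigman

set_option autoImplicit false

namespace CfsgLib.NormalPComplement

open Cfsg

variable {G : Type*} [Group G] {H : Type*} [Group H] {p : ℕ}

/-- `N(P) / C(P)`. -/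
abbrev AutQuot (P : Subgroup G) :=
  ↥(Subgroup.normalizer (P : Set G)) ⧸
    (Subgroup.centralizer (P : Set G)).subgroupOf (Subgroup.normalizer (P : Set G))

/-- `a` induces on `P` an element of the largest normal `p`-subgroup of `N(P) / C(P)`. -/
def InAutCore (p : ℕ) (P : Subgroup G) (a : G) : Prop :=
  ∃ hn : a ∈ Subgroup.normalizer (P : Set G),
    (QuotientGroup.mk ⟨a, hn⟩ : AutQuot P) ∈ pCore p (AutQuot P)

theorem map_mk'_le_pCore_iff {A P : Subgroup G} (hA : A ≤ Subgroup.normalizer (P : Set G)) :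
    (A.subgroupOf (Subgroup.normalizer (P : Set G))).map
        (QuotientGroup.mk' ((Subgroup.centralizer (P : Set G)).subgroupOf
          (Subgroup.normalizer (P : Set G)))) ≤ pCore p (AutQuot P) ↔
      ∀ a ∈ A, InAutCore p P a := by
  constructor
  · exact fun h a ha => ⟨hA ha, h ⟨⟨a, hA ha⟩, ha, rfl⟩⟩
  · rintro h _ ⟨⟨a, han⟩, ha, rfl⟩
    obtain ⟨hn, hmem⟩ := h a ha
    exact hmem

/-- The map `N(P)/C(P) → N(f P)/C(f P)` induced by a homomorphism. -/
def autQuotMap (f : G →* H) (P : Subgroup G) : AutQuot P →* AutQuot (P.map f) :=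
  QuotientGroup.map _ _
    ((f.comp (Subgroup.normalizer (P : Set G)).subtype).codRestrict
      (Subgroup.normalizer ((P.map f : Subgroup H) : Set H))
      fun x => Subgroup.le_normalizer_map f ⟨x.1, x.2, rfl⟩)
    (by
      intro x hx
      refine Subgroup.mem_centralizer_iff.2 ?_
      rintro _ ⟨w, hw, rfl⟩
      show f w * f x.1 = f x.1 * f w
      rw [← map_mul, ← map_mul]
      exact congrArg f (Subgroup.mem_centralizer_iff.1 (Subgroup.mem_subgroupOf.1 hx) w hw))

theorem le_normalizer_of_map_normalizer [Finite G] [Fact p.Prime] {O P : Subgroup G} [O.Normal]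
    (hP : IsPGroup p P) (hO : (Nat.card O).Coprime p) {y : G ⧸ O}
    (hy : y ∈ Subgroup.normalizer ((P.map (QuotientGroup.mk' O) : Subgroup (G ⧸ O)) : Set (G ⧸ O))) :
    ∃ n ∈ Subgroup.normalizer (P : Set G), QuotientGroup.mk' O n = y := by
  obtain ⟨g, rfl⟩ := QuotientGroup.mk'_surjective O y
  obtain ⟨o, ho, hn⟩ := CfsgLib.SectRank.exists_mul_mem_normalizer hP hO (h := g) fun w hw => by
    have h1 := (Subgroup.mem_normalizer_iff.1 hy (QuotientGroup.mk' O w)).1 ⟨w, hw, rfl⟩
    rw [← map_mul, ← map_inv, ← map_mul, ← Subgroup.mem_comap, Subgroup.comap_map_eq,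
      QuotientGroup.ker_mk'] at h1
    rwa [sup_comm]
  refine ⟨o * g, hn, ?_⟩
  rw [map_mul, QuotientGroup.mk'_apply, (QuotientGroup.eq_one_iff o).2 ho, one_mul]

theorem autQuotMap_surjective [Finite G] [Fact p.Prime] {O P : Subgroup G} [O.Normal]
    (hP : IsPGroup p P) (hO : (Nat.card O).Coprime p) :
    Function.Surjective (autQuotMap (QuotientGroup.mk' O) P) := by
  intro q
  obtain ⟨y, rfl⟩ := QuotientGroup.mk_surjective q
  obtain ⟨n, hn, hny⟩ := le_normalizer_of_map_normalizer hP hO y.2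
  exact ⟨QuotientGroup.mk ⟨n, hn⟩, congrArg QuotientGroup.mk (Subtype.ext hny)⟩

theorem autQuotMap_injective [Finite G] [Fact p.Prime] {O P : Subgroup G} [O.Normal]
    (hP : IsPGroup p P) (hO : (Nat.card O).Coprime p) :
    Function.Injective (autQuotMap (QuotientGroup.mk' O) P) := by
  rw [← MonoidHom.ker_eq_bot_iff, eq_bot_iff]
  intro q hq
  obtain ⟨⟨n, hn⟩, rfl⟩ := QuotientGroup.mk_surjective q
  refine Subgroup.mem_bot.2 ((QuotientGroup.eq_one_iff _).2 ?_)
  have hc := Subgroup.mem_centralizer_iff.1 (Subgroup.mem_subgroupOf.1 ((QuotientGroup.eq_one_iff _).1 hq))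
  refine Subgroup.mem_subgroupOf.2 (Subgroup.mem_centralizer_iff.2 fun x hx => ?_)
  have h1 : QuotientGroup.mk' O x * QuotientGroup.mk' O n = QuotientGroup.mk' O n * QuotientGroup.mk' O x :=
    hc _ (Subgroup.mem_map_of_mem _ hx)
  have hP' : n * x * n⁻¹ * x⁻¹ ∈ P := mul_mem ((Subgroup.mem_normalizer_iff.1 hn x).1 hx) (inv_mem hx)
  have hO' : n * x * n⁻¹ * x⁻¹ ∈ O := by
    rw [← QuotientGroup.eq_one_iff (N := O), ← QuotientGroup.mk'_apply, map_mul, map_mul, map_mul,
      map_inv, map_inv, ← h1]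
    group
  have h4 : n * x * n⁻¹ * x⁻¹ = 1 := by
    obtain ⟨k, hk⟩ := IsPGroup.iff_card.1 hP
    refine orderOf_eq_one_iff.1 (Nat.eq_one_of_dvd_coprimes (hO.pow_right k)
      (Subgroup.orderOf_dvd_natCard O hO') ?_)
    rw [← hk]
    exact Subgroup.orderOf_dvd_natCard P hP'
  exact (mul_inv_eq_iff_eq_mul.1 (mul_inv_eq_one.1 h4)).symm

/-- `InAutCore` does not change modulo a normal `p'`-subgroup. -/
theorem inAutCore_map_iff [Finite G] [Fact p.Prime] {O P : Subgroup G} [O.Normal]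
    (hP : IsPGroup p P) (hO : (Nat.card O).Coprime p) {a : G}
    (ha : a ∈ Subgroup.normalizer (P : Set G)) :
    InAutCore p (P.map (QuotientGroup.mk' O)) (QuotientGroup.mk' O a) ↔ InAutCore p P a := by
  let e : AutQuot P ≃* AutQuot (P.map (QuotientGroup.mk' O)) :=
    MulEquiv.ofBijective (autQuotMap (QuotientGroup.mk' O) P)
      ⟨autQuotMap_injective hP hO, autQuotMap_surjective hP hO⟩
  have he := CfsgLib.Cores.map_pCore_equiv (p := p) e
  constructor
  · rintro ⟨hn, hmem⟩
    refine ⟨ha, ?_⟩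
    rw [← he] at hmem
    obtain ⟨u, hu, hue⟩ := hmem
    have heq : u = QuotientGroup.mk ⟨a, ha⟩ := e.injective (hue.trans rfl)
    exact heq ▸ hu
  · rintro ⟨hn, hmem⟩
    exact ⟨Subgroup.le_normalizer_map _ ⟨a, hn, rfl⟩, he ▸ ⟨_, hmem, rfl⟩⟩

theorem mk_mem_pCore_of_inAutCore {V : Subgroup G} [V.Normal] {a : G} (h : InAutCore p V a) :
    (QuotientGroup.mk a : G ⧸ Subgroup.centralizer (V : Set G)) ∈
      pCore p (G ⧸ Subgroup.centralizer (V : Set G)) := by
  obtain ⟨hn, hmem⟩ := h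
  let φ := QuotientGroup.map ((Subgroup.centralizer (V : Set G)).subgroupOf (Subgroup.normalizer (V : Set G)))
    (Subgroup.centralizer (V : Set G)) (Subgroup.normalizer (V : Set G)).subtype le_rfl
  have htop : Subgroup.normalizer (V : Set G) = ⊤ := Subgroup.normalizer_eq_top V
  have hsurj : Function.Surjective φ := by
    intro q
    obtain ⟨g, rfl⟩ := QuotientGroup.mk_surjective q
    exact ⟨QuotientGroup.mk ⟨g, htop ▸ Subgroup.mem_top g⟩, rfl⟩
  exact CfsgLib.Cores.map_pCore_le_of_surjective hsurj ⟨_, hmem, rfl⟩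

theorem inAutCore_of_mk_mem_pCore {V : Subgroup G} [V.Normal] {a : G}
    (h : (QuotientGroup.mk a : G ⧸ Subgroup.centralizer (V : Set G)) ∈
      pCore p (G ⧸ Subgroup.centralizer (V : Set G))) : InAutCore p V a := by
  have htop : Subgroup.normalizer (V : Set G) = ⊤ := Subgroup.normalizer_eq_top V
  refine ⟨htop ▸ Subgroup.mem_top a, ?_⟩
  let φ := QuotientGroup.map ((Subgroup.centralizer (V : Set G)).subgroupOf (Subgroup.normalizer (V : Set G)))
    (Subgroup.centralizer (V : Set G)) (Subgroup.normalizer (V : Set G)).subtype le_rfl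
  have hsurj : Function.Surjective φ := by
    intro q
    obtain ⟨g, rfl⟩ := QuotientGroup.mk_surjective q
    exact ⟨QuotientGroup.mk ⟨g, htop ▸ Subgroup.mem_top g⟩, rfl⟩
  have hinj : Function.Injective φ := by
    rw [← MonoidHom.ker_eq_bot_iff, eq_bot_iff]
    intro q hq
    obtain ⟨g, rfl⟩ := QuotientGroup.mk_surjective q
    exact Subgroup.mem_bot.2 ((QuotientGroup.eq_one_iff g).2 ((QuotientGroup.eq_one_iff (g : G)).1 hq))
  let e := MulEquiv.ofBijective φ ⟨hinj, hsurj⟩
  rw [← CfsgLib.Cores.map_pCore_equiv (p := p) e] at h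
  obtain ⟨u, hu, hue⟩ := h
  have heq : u = QuotientGroup.mk ⟨a, htop ▸ Subgroup.mem_top a⟩ := hinj hue
  exact heq ▸ hu

variable [Finite G] [Fact p.Prime]

omit [Finite G] in
theorem pCore_map_ne_bot [Finite G] (hO : pCore p G ≠ ⊥) :
    pCore p (G ⧸ pPrimeCore p G) ≠ ⊥ := by
  intro hbot
  apply hO
  have h := CfsgLib.Cores.map_pCore_le_of_surjective (p := p) (QuotientGroup.mk'_surjective (pPrimeCore p G))
  rw [hbot, le_bot_iff, Subgroup.map_eq_bot_iff, QuotientGroup.ker_mk'] at h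
  exact Disjoint.eq_bot_of_le CfsgLib.Cores.disjoint_pCore_pPrimeCore h

/-- The condition of `IsPStable` passes to and from the quotient by `O_{p'}`. -/
theorem isPStable_iff_quotient (hO : pCore p G ≠ ⊥) :
    IsPStable p G ↔ IsPStable p (G ⧸ pPrimeCore p G) := by
  set O := pPrimeCore p G with hOdef
  set π := QuotientGroup.mk' O with hπ
  have hOc : (Nat.card O).Coprime p := CfsgLib.Cores.card_pPrimeCore_coprime p
  have hbot : pPrimeCore p (G ⧸ O) = ⊥ := CfsgLib.Cores.pPrimeCore_quotient_pPrimeCore p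
  constructor
  · rintro ⟨hodd, -, h⟩
    refine ⟨hodd, pCore_map_ne_bot hO, fun Ab Pb hAb hPb hnorm hle hn hq => ?_⟩
    have hAN : Ab ≤ Subgroup.normalizer (Pb : Set (G ⧸ O)) := fun a ha =>
      Subgroup.mem_normalizer_fintype fun x hx => hnorm a ha x hx
    rw [map_mk'_le_pCore_iff hAN]
    haveI hPbn : Pb.Normal := by
      have h1 : (pPrimeCore p (G ⧸ O) ⊔ Pb) = Pb := by rw [hbot, bot_sup_eq]
      exact h1 ▸ hn
    obtain ⟨P, hP, rfl⟩ := CfsgLib.Replacement.exists_pSubgroup_map_eq (QuotientGroup.mk'_surjective O) hPb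
    have hsurj : Function.Surjective (π.comp (Subgroup.normalizer (P : Set G)).subtype) := by
      intro y
      obtain ⟨n, hn', hny⟩ := le_normalizer_of_map_normalizer hP hOc (y := y)
        (by rw [Subgroup.normalizer_eq_top]; exact Subgroup.mem_top y)
      exact ⟨⟨n, hn'⟩, hny⟩
    obtain ⟨A', hA', hA'e⟩ := CfsgLib.Replacement.exists_pSubgroup_map_eq hsurj hAb
    set A := A'.map (Subgroup.normalizer (P : Set G)).subtype with hA
    have hAmap : A.map π = Ab := by rw [hA, Subgroup.map_map]; exact hA'e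
    have hAle : A ≤ Subgroup.normalizer (P : Set G) := Subgroup.map_subtype_le A'
    have hPle : P ≤ pPrimePCore p G := fun x hx => by
      have h1 := hle (Subgroup.mem_map_of_mem π hx)
      rw [CfsgLib.PSolvable.pPrimePCore_eq_pCore hbot] at h1
      exact h1
    have hnormal : (pPrimeCore p G ⊔ P).Normal := by
      have h1 : (P.map π).comap π = pPrimeCore p G ⊔ P := by
        rw [Subgroup.comap_map_eq, hπ, QuotientGroup.ker_mk', sup_comm]
      exact h1 ▸ hPbn.comap π
    have hquad : ⁅⁅P, A⁆, A⁆ = ⊥ := by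
      have hPA : ∀ B : Subgroup G, B ≤ P → ⁅B, A⁆ ≤ P := by
        intro B hB
        rw [Subgroup.commutator_le]
        intro b hb a ha
        rw [commutatorElement_def, mul_assoc b, mul_assoc b]
        exact mul_mem (hB hb) ((Subgroup.mem_normalizer_iff.1 (hAle ha) _).1 (inv_mem (hB hb)))
      refine eq_bot_iff.2 fun x hx => ?_
      have hxO : x ∈ O := by
        have h1 : π x ∈ (⁅⁅P, A⁆, A⁆).map π := ⟨x, hx, rfl⟩
        rw [Subgroup.map_commutator, Subgroup.map_commutator, hAmap, hq] at h1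
        exact (QuotientGroup.eq_one_iff x).1 (Subgroup.mem_bot.1 h1)
      obtain ⟨k, hk⟩ := IsPGroup.iff_card.1 hP
      exact Subgroup.mem_bot.2 (orderOf_eq_one_iff.1 (Nat.eq_one_of_dvd_coprimes (hOc.pow_right k)
        (Subgroup.orderOf_dvd_natCard _ hxO)
        (hk ▸ Subgroup.orderOf_dvd_natCard _ (hPA _ (hPA _ le_rfl) hx))))
    have hres := h A P (hA'.map _) hP
      (fun a ha x hx => (Subgroup.mem_normalizer_iff.1 (hAle ha) x).1 hx) hPle hnormal hquad
    rw [map_mk'_le_pCore_iff hAle] at hres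
    intro ab hab
    rw [← hAmap] at hab
    obtain ⟨a, ha, rfl⟩ := hab
    exact (inAutCore_map_iff hP hOc (hAle ha)).2 (hres a ha)
  · rintro ⟨hodd, -, h⟩
    refine ⟨hodd, hO, fun A P hA hP hnorm hle hn hq => ?_⟩
    have hAN : A ≤ Subgroup.normalizer (P : Set G) := fun a ha =>
      Subgroup.mem_normalizer_fintype fun x hx => hnorm a ha x hx
    rw [map_mk'_le_pCore_iff hAN]
    have hAN' : A.map π ≤ Subgroup.normalizer ((P.map π : Subgroup (G ⧸ O)) : Set (G ⧸ O)) :=
      (Subgroup.map_mono hAN).trans (Subgroup.le_normalizer_map π)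
    have hnormal : (pPrimeCore p (G ⧸ O) ⊔ P.map π).Normal := by
      have h1 : (pPrimeCore p G ⊔ P).map π = P.map π := by
        rw [Subgroup.map_sup, (Subgroup.map_eq_bot_iff (pPrimeCore p G)).2
          (by rw [hπ, QuotientGroup.ker_mk']), bot_sup_eq]
      have h2 : (P.map π).Normal := h1 ▸ hn.map π (QuotientGroup.mk'_surjective O)
      rw [hbot, bot_sup_eq]
      exact h2
    have hres := h (A.map π) (P.map π) (hA.map π) (hP.map π)
      (fun a ha x hx => (Subgroup.mem_normalizer_iff.1 (hAN' ha) x).1 hx)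
      (by
        rintro _ ⟨x, hx, rfl⟩
        rw [CfsgLib.PSolvable.pPrimePCore_eq_pCore hbot]
        exact hle hx)
      hnormal
      (by rw [← Subgroup.map_commutator, ← Subgroup.map_commutator, hq, Subgroup.map_bot])
    rw [map_mk'_le_pCore_iff hAN'] at hres
    exact fun a ha => (inAutCore_map_iff hP hOc (hAN ha)).1 (hres _ (Subgroup.mem_map_of_mem π ha))

omit [Finite G] [Fact p.Prime] in
/-- An element acting quadratically on `V` centralizes `V` after raising to the exponent of `V`. -/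
theorem pow_mem_centralizer_of_quadratic {V : Subgroup G} {a : G}
    (haV : ∀ v ∈ V, a * v * a⁻¹ ∈ V)
    (h : ⁅⁅V, Subgroup.zpowers a⁆, Subgroup.zpowers a⁆ = ⊥) {n : ℕ} (hn : ∀ v ∈ V, v ^ n = 1) :
    a ^ n ∈ Subgroup.centralizer (V : Set G) := by
  refine Subgroup.mem_centralizer_iff.2 fun v hv => ?_
  set c := v⁻¹ * (a * v * a⁻¹) with hc
  have hcV : c ∈ V := mul_mem (inv_mem hv) (haV v hv)
  have hcm : c ∈ ⁅V, Subgroup.zpowers a⁆ := by
    have h1 := Subgroup.commutator_mem_commutator (inv_mem hv) (Subgroup.mem_zpowers a)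
    rw [commutatorElement_def, inv_inv] at h1
    rw [hc, ← mul_assoc, ← mul_assoc]
    exact h1
  have hca : a * c * a⁻¹ = c := by
    have h1 := Subgroup.commutator_mem_commutator hcm (Subgroup.mem_zpowers a)
    rw [h, Subgroup.mem_bot, commutatorElement_eq_one_iff_mul_comm] at h1
    rw [← h1, mul_inv_cancel_right]
  have key : ∀ k : ℕ, a ^ k * v * (a ^ k)⁻¹ = v * c ^ k := by
    intro k
    induction k with
    | zero => simp
    | succ k ih =>
      have hck : a * c ^ k * a⁻¹ = c ^ k := by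
        rw [show a * c ^ k * a⁻¹ = (a * c * a⁻¹) ^ k from (conj_pow ..).symm, hca]
      calc a ^ (k + 1) * v * (a ^ (k + 1))⁻¹
          = a * (a ^ k * v * (a ^ k)⁻¹) * a⁻¹ := by rw [pow_succ']; group
        _ = (a * v * a⁻¹) * (a * c ^ k * a⁻¹) := by rw [ih]; group
        _ = v * c ^ (k + 1) := by
            rw [hck, pow_succ', ← mul_assoc v c, show v * c = a * v * a⁻¹ from mul_inv_cancel_left ..]
  have h1 := key n
  rw [hn c hcV, mul_one] at h1
  exact (mul_inv_eq_iff_eq_mul.1 h1).symm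

/-- In a `p`-stable group with trivial `p'`-core, the action on every normal `p`-subgroup is `p`-stable. -/
theorem isPStableOn_of_isPStable (hs : IsPStable p G) (hbot : pPrimeCore p G = ⊥)
    (V : Subgroup G) [hV : V.Normal] (hVp : IsPGroup p V) : IsPStableOn p V := by
  intro a ha
  obtain ⟨k, hk⟩ := IsPGroup.iff_card.1 hVp
  have hak : a ^ p ^ k ∈ Subgroup.centralizer (V : Set G) :=
    pow_mem_centralizer_of_quadratic (fun v hv => hV.conj_mem v hv a) ha fun v hv =>
      orderOf_dvd_iff_pow_eq_one.1 (hk ▸ Subgroup.orderOf_dvd_natCard V hv)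
  obtain ⟨e, m, hm, hem⟩ := Nat.exists_eq_pow_mul_and_not_dvd (orderOf_pos a).ne' p
    (Fact.out : p.Prime).ne_one
  have hcop : Nat.Coprime m (p ^ k) :=
    (((Fact.out : p.Prime).coprime_iff_not_dvd.2 hm).symm).pow_right k
  obtain ⟨u, hu⟩ : ∃ u : ℤ, ∃ w : ℤ, (m : ℤ) * u + (p ^ k : ℕ) * w = 1 :=
    ⟨Nat.gcdA m (p ^ k), Nat.gcdB m (p ^ k), by have := Nat.gcd_eq_gcd_ab m (p ^ k); rw [hcop.gcd_eq_one] at this; push_cast at this ⊢; linarith⟩
  obtain ⟨w, huw⟩ := hu
  set b := (a ^ m) ^ u with hb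
  have hbp : IsPGroup p (Subgroup.zpowers b) := by
    refine IsPGroup.of_card (n := e) ?_ |>.to_le (Subgroup.zpowers_le.2 (Subgroup.zpow_mem_zpowers (a ^ m) u))
    rw [Nat.card_zpowers, orderOf_pow' a (by rintro rfl; exact hm (dvd_zero p)), hem,
      Nat.gcd_eq_right (dvd_mul_left m _), Nat.mul_div_cancel _ (Nat.pos_of_ne_zero (by rintro rfl; exact hm (dvd_zero p)))]
  have hab : b⁻¹ * a ∈ Subgroup.centralizer (V : Set G) := by
    have h1 : b⁻¹ * a = (a ^ p ^ k) ^ w := by
      rw [hb, ← zpow_natCast a m, ← zpow_mul, ← zpow_neg, ← zpow_add_one, ← zpow_natCast a (p ^ k),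
        ← zpow_mul]
      congr 1
      linarith
    rw [h1]
    exact zpow_mem hak w
  have hbz : Subgroup.zpowers b ≤ Subgroup.zpowers a :=
    Subgroup.zpowers_le.2 (zpow_mem (pow_mem (Subgroup.mem_zpowers a) m) u)
  have hq : ⁅⁅V, Subgroup.zpowers b⁆, Subgroup.zpowers b⁆ = ⊥ :=
    eq_bot_iff.2 (ha ▸ Subgroup.commutator_mono (Subgroup.commutator_mono le_rfl hbz) hbz)
  have hres := hs.2.2 (Subgroup.zpowers b) V hbp hVp (fun c _ x hx => hV.conj_mem x hx c)
    ((CfsgLib.Cores.le_pCore hVp).trans (CfsgLib.PSolvable.pCore_le_pPrimePCore p G))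
    (by rw [hbot, bot_sup_eq]; exact hV) hq
  rw [map_mk'_le_pCore_iff (Subgroup.normalizer_eq_top (H := V) ▸ le_top)] at hres
  have hmem := mk_mem_pCore_of_inAutCore (hres b (Subgroup.mem_zpowers b))
  rwa [QuotientGroup.eq.2 hab] at hmem

end CfsgLib.NormalPComplement
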